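import Cfsg.Agent.H5.J3.C1.D0

set_option autoImplicit false
set_option maxRecDepth 100000
set_option Elab.async false

namespace Cfsg.H6.J3.C1

theorem b0 : allR (blk get gs (gwB gwh 263) gd 38723982254506841524162166546190558233988686545445013371879680) 4 676 = true := by decide +kernel

theorem b1 : allR (blk get gs (gwB gwh 263) gd 38723982254506841524162166546190558233988686545445013371879680) 680 625 = true := by decide +kernel

theorem b2 : allR (blk get gs (gwB gwh 263) gd 38723982254506841524162166546190558233988686545445013371879680) 1305 592 = true := by decide +kernel

theorem b3 : allR (blk get gs (gwB gwh 263) gd 38723982254506841524162166546190558233988686545445013371879680) 1897 566 = true := by decide +kernel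

theorem b4 : allR (blk get gs (gwB gwh 263) gd 38723982254506841524162166546190558233988686545445013371879680) 2463 544 = true := by decide +kernel

theorem b5 : allR (blk get gs (gwB gwh 263) gd 38723982254506841524162166546190558233988686545445013371879680) 3007 144 = true := by decide +kernel

theorem c0 : allR (clo get gc 17442 201920 273) 0 1562 = true := by decide +kernel

theorem c1 : allR (clo get gc 17442 201920 273) 1562 1441 = true := by decide +kernel

end Cfsg.H6.J3.C1
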