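import Cfsg.Agent.H6.Cert
import Cfsg.Agent.H5.J3P
import Cfsg.Agent.H5.J3.C1.B0

set_option autoImplicit false
set_option maxRecDepth 100000
set_option Elab.async false

namespace Cfsg.H6.J3.C1

def sg : List (List ℕ) := [[], [1], [2], [3], [4], [5], [6], [7], [8], [9], [10], [11], [1], [1], [3], [3], [4], [4], [5], [6], [8], [9], [10], [10], [2,4,2], [2,4,2]]

def BL : List ℕ := [0x10c, 0x30e, 0x410, 0x612, 0x914, 0xa16, 0x2040218, 0x30402040204020402, 0x302010201, 0x2050206, 0x509020902, 0x6070607, 0x7010702, 0x7030703, 0xb050b06, 0x6090b06090b, 0x2070107, 0x40a030a, 0xa030a04, 0x90a060a, 0xa020a020a0b, 0x8030901, 0x4030403, 0x40704070407, 0x5080609, 0x90909, 0x1050106, 0x3050306, 0x1080309, 0x30b030b030b, 0xb0a020a020a, 0x2030203, 0x404, 0x3040304, 0x1040104, 0x4010401, 0x103080109, 0x20b020b020b, 0x4080409, 0x5030603, 0x60606, 0x40604060406, 0x8040904, 0xb02030b0107060907, 0x3020302, 0x3010301, 0xb020b020b02, 0x5010601, 0x5020602, 0x1030103, 0x50402040606040204050204020401, 0x3070307, 0x101, 0x202, 0x303, 0x506, 0x809, 0xa0a,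 0x70407040704, 0x208020806, 0x908, 0xb0b, 0x7080507010b03020b, 0x707, 0x605, 0xb08050b0805, 0xb030b030b03, 0x50b060b, 0xa0204020a0204020a020402, 0x204020a0204020a0204020a, 0x10402040206040204050504020406, 0x7050705, 0x102010203, 0x20402040204020403, 0x0, 0x50505, 0x8050906, 0x801090301, 0x50405040504, 0xa050a08]

def Sub : List (List ℕ) := [[1], [3], [4], [5], [8], [10], [2,4,2]]

theorem hA : prepA 3416462311689318815716475136 Cfsg.H5.P3.R sg 38723982254506841524162166546190558233988686545445013371879680 BL Sub get gd = true := by decide +kernel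

theorem hw : allR (okW BL gwh) 0 263 = true := by decide +kernel

theorem hb : ∀ b, 4 ≤ b → b < 3151 → blk get gs (gwB gwh 263) gd 38723982254506841524162166546190558233988686545445013371879680 b = true :=
  (range_join (range_join (allR_range b0 (by norm_num : 4 + 676 = 680)) (range_join (allR_range b1 (by norm_num : 680 + 625 = 1305)) (allR_range b2 (by norm_num : 1305 + 592 = 1897)))) (range_join (allR_range b3 (by norm_num : 1897 + 566 = 2463)) (range_join (allR_range b4 (by norm_num : 2463 + 544 = 3007)) (allR_range b5 (by norm_num : 3007 + 144 = 3151)))))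

def X : List (List ℕ) := [[1], [2], [3], [4], [5], [7], [8], [10], [11]]

theorem hC : prepC sg 38723982254506841524162166546190558233988686545445013371879680 X 11 17442 273 = true := by decide +kernel

theorem hc : ∀ t, 0 ≤ t → t < 11 * 273 → clo get gc 17442 201920 273 t = true :=
  (range_join (allR_range c0 (by norm_num : 0 + 1562 = 1562)) (allR_range c1 (by norm_num : 1562 + 1441 = 3003)))

theorem cover {G : Type*} [Group G] {ev : ℕ → G} (hev : Good ev 3416462311689318815716475136) (hR : Rels ev Cfsg.H5.P3.R) :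
    Cover (gen ev Sub) (gen ev X) 17442 :=
  cert_cover hev hR hA hC hw hb (by norm_num) hc


end Cfsg.H6.J3.C1
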